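import Cfsg.Agent.Lib.Rank2.U64

/-! The Sylow 2-subgroup of `U₃(4)` has no automorphism with inner square moving a central involution
(plan, section U64). -/

set_option autoImplicit false

namespace Cfsg.Lib.TCK
open Cfsg.Lib.R2

theorem isU_eight {P : Type*} [Group P] {z w : P} (h : IsU z w) {u : P} (hu : u * u = z) :
    8 ≤ {b | b * u * b⁻¹ = u * w ∧ b * b = z}.ncard := by
  have := h.finite
  have hu1 : u * u ≠ 1 := hu ▸ h.z1
  obtain ⟨b0, hb0⟩ := h.conj u hu1 w h.ww
  have key : ∀ b, b * u * b⁻¹ = u * w → u * b * (u * b) = z * w * (b * b) := fun b hb => by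
    have e : b * u = u * w * b := by rw [← hb]; group
    rw [show u * b * (u * b) = u * (b * u) * b by group, e, ← hu]; group
  have mul : ∀ b, b * u * b⁻¹ = u * w → u * b * u * (u * b)⁻¹ = u * w := fun b hb => by
    rw [show u * b * u * (u * b)⁻¹ = u * (b * u * b⁻¹) * u⁻¹ by group, hb, mul_assoc, mul_assoc, h.wc]; group
  have ne : ∀ b, b * u * b⁻¹ = u * w → b * b ≠ 1 := fun b hb e => by
    rw [h.cen b e, mul_inv_cancel_right] at hb
    exact h.w1 (by simpa using hb.symm)
  have h1 : 16 ≤ {b | b * u * b⁻¹ = u * w}.ncard := by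
    rw [← h.card_cent hu1, show Nat.card (Subgroup.centralizer ({u} : Set P)) =
      ((Subgroup.centralizer ({u} : Set P) : Subgroup P) : Set P).ncard from Nat.card_coe_set_eq _,
      ← Set.ncard_image_of_injective (f := fun d => b0 * d) _ (mul_right_injective b0)]
    refine Set.ncard_le_ncard ?_ (Set.toFinite _)
    rintro _ ⟨d, hd, rfl⟩
    have := Subgroup.mem_centralizer_singleton_iff.1 hd
    change b0 * d * u * (b0 * d)⁻¹ = u * w
    rw [← hb0, mul_assoc b0 d, this]; group
  have h2 : {b | b * u * b⁻¹ = u * w}.ncard ≤ {b | b * u * b⁻¹ = u * w ∧ b * b = z}.ncard +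
      {b | b * u * b⁻¹ = u * w ∧ b * b = w}.ncard := by
    refine le_trans (Set.ncard_le_ncard ?_ (Set.toFinite _)) (Set.ncard_union_le _ _)
    intro b hb
    rcases h.all _ (h.four b) with e | e | e | e
    · exact (ne b hb e).elim
    · exact Or.inl ⟨hb, e⟩
    · exact Or.inr ⟨hb, e⟩
    · exact (ne _ (mul b hb) (by rw [key b hb, e, h.zwzw])).elim
  have h3 : {b | b * u * b⁻¹ = u * w ∧ b * b = w}.ncard ≤ {b | b * u * b⁻¹ = u * w ∧ b * b = z}.ncard := by
    rw [← Set.ncard_image_of_injective (f := fun d => u * d) _ (mul_right_injective u)]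
    refine Set.ncard_le_ncard ?_ (Set.toFinite _)
    rintro _ ⟨b, ⟨hb, e⟩, rfl⟩
    exact ⟨mul b hb, by rw [key b hb, e, mul_assoc, h.ww, mul_one]⟩
  omega

theorem isU_not {P : Type*} [Group P] {z w : P} (h : IsU z w) {u v : P} (hu : u * u = z) (hv : v * v = z)
    (huv : v * u * v⁻¹ = u * z) : False := by
  have := h.finite
  have four : ∀ c x, x * u * x⁻¹ = u * c → x * x = z → 4 ≤ {b | b * u * b⁻¹ = u * c ∧ b * b = z}.ncard :=
    fun c x h1 h2 => h.four_le_ncard (A := fun b => b * u * b⁻¹ = u * c) (fun y hy d hd => by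
      rw [← hy, mul_assoc y d, h.cen d hd]; group) h1 h2
  have h1 := four 1 u (by simp) hu
  have h2 := four z v huv hv
  have h3 := isU_eight h hu
  have h4 := isU_eight (h.of_cen4 h.rot) hu
  have dj : ∀ (A : Set P) (c : P), (∀ b ∈ A, b * u * b⁻¹ ≠ u * c) →
      (A ∪ {b | b * u * b⁻¹ = u * c ∧ b * b = z}).ncard = A.ncard + {b | b * u * b⁻¹ = u * c ∧ b * b = z}.ncard :=
    fun A c hA => Set.ncard_union_eq (Set.disjoint_left.2 fun b hb hb' => hA b hb hb'.1)
  have h5 : ({b | b * u * b⁻¹ = u * 1 ∧ b * b = z} ∪ {b | b * u * b⁻¹ = u * z ∧ b * b = z} ∪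
      {b | b * u * b⁻¹ = u * w ∧ b * b = z} ∪ {b | b * u * b⁻¹ = u * (z * w) ∧ b * b = z}).ncard ≤ 20 := by
    rw [← h.fib z h.zz h.z1]
    refine Set.ncard_le_ncard ?_ (Set.toFinite _)
    rintro b (((hb | hb) | hb) | hb) <;> exact hb.2
  rw [dj, dj, dj] at h5
  · omega
  · rintro b ⟨hb, -⟩
    rw [hb]; simpa using h.z1
  · rintro b (⟨hb, -⟩ | ⟨hb, -⟩) <;> rw [hb]
    · simpa using h.w1
    · simpa using h.zw
  · rintro b ((⟨hb, -⟩ | ⟨hb, -⟩) | ⟨hb, -⟩) <;> rw [hb]
    · simpa using h.zw1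
    · simpa using h.w1
    · simpa using h.z1

theorem not_isU {P : Type*} [Group P] {z w : P} (h : IsU z w) (σ : MulAut P) (hz : σ z = z) (hw : σ w ≠ w) {p : P}
    (hp : ∀ b, σ (σ b) = p * b * p⁻¹) : False := by
  have := h.finite
  let π : P →* P ⧸ h.Z := QuotientGroup.mk' h.Z
  have eq : ∀ a b, π a = π b ↔ a⁻¹ * b ∈ h.Z := fun a b => QuotientGroup.eq
  have one : ∀ a, π a = 1 ↔ a * a = 1 := fun a => QuotientGroup.eq_one_iff a
  have sq : ∀ a, π a * π a = 1 := fun a => by rw [← map_mul, one]; exact h.four a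
  have cm : ∀ a b, π a * π b = π b * π a := fun a b => h.quot_comm _ _
  have F : ∀ b, π (σ b) = π b → π b ≠ 1 → b * b = z := fun b hb h1 => by
    have e : σ (b * b) = b * b := by rw [map_mul]; exact h.sq_eq ((eq _ _).1 hb.symm)
    rcases h.all _ (h.four b) with e' | e' | e' | e'
    · exact (h1 ((one b).2 e')).elim
    · exact e'
    · exact (hw (by rwa [e'] at e)).elim
    · rw [e', map_mul, hz] at e
      exact (hw (mul_left_cancel e)).elim
  have F2 : ∀ b, π (σ (b * σ b)) = π (b * σ b) := fun b => by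
    rw [map_mul, map_mul, map_mul, hp, ← (eq _ _).2 (h.conj_mem b p), cm]
  have N : ∀ b, b * b = w → π (b * σ b) ≠ 1 := fun b hb e => by
    rw [map_mul, ← sq b] at e
    exact h.zw ((F b (mul_left_cancel e) fun e' => h.w1 (hb ▸ (one b).1 e')).symm.trans hb)
  have fin : ∀ u v, π (σ u) = π u → π (σ v) = π v → π u ≠ 1 → π v ≠ 1 → π (u * v) ≠ 1 → False := by
    intro u v h1 h2 h3 h4 h5
    have e1 := F u h1 h3
    have e2 := F v h2 h4
    have e3 := F (u * v) (by rw [map_mul, map_mul, map_mul, h1, h2]) h5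
    refine isU_not h e1 e2 ?_
    have e4 : v * u * v = u := by
      rw [← e1] at e3
      exact mul_left_cancel (a := u) (by rw [← e3]; group)
    have e5 : v⁻¹ = v * z := by rw [← e2, inv_eq_iff_mul_eq_one, ← h.four v]; group
    rw [e5, ← mul_assoc, e4]
  obtain ⟨b, hb⟩ : {x | x * x = w}.Nonempty := Set.nonempty_of_ncard_ne_zero (by rw [h.fib w h.ww h.w1]; norm_num)
  obtain ⟨b', hb', hbb⟩ : ∃ b', b' * b' = w ∧ π b ≠ π b' := by
    by_contra! hh
    have : {x | x * x = w}.ncard ≤ 4 := by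
      rw [← h.card_Z, show Nat.card h.Z = (h.Z : Set P).ncard from Nat.card_coe_set_eq _,
        ← Set.ncard_image_of_injective (f := fun d => b * d) (h.Z : Set P) (mul_right_injective b)]
      refine Set.ncard_le_ncard ?_ (Set.toFinite _)
      intro x hx
      exact (Set.mem_image _ _ _).2 ⟨b⁻¹ * x, (eq _ _).1 (hh x hx), by simp⟩
    rw [h.fib w h.ww h.w1] at this
    omega
  by_cases hc : π (b * σ b * (b' * σ b')) = 1
  · refine fin (b * σ b) (b * b') (F2 b) ?_ (N b hb) (fun e => hbb ?_) fun e => hw ?_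
    · simp only [map_mul] at hc ⊢
      have := sq b; have := sq b'; have := sq (σ b); have := sq (σ b')
      have := cm b b'; have := cm b (σ b); have := cm b (σ b'); have := cm b' (σ b); have := cm b' (σ b')
      have := cm (σ b) (σ b')
      calc π (σ b) * π (σ b') = π b * π b * (π (σ b) * (π b' * π b') * π (σ b')) := by rw [sq, sq]; simp
        _ = π b * (π b * π (σ b) * (π b' * π (σ b'))) * π b' := by
          simp only [mul_assoc]; rw [cm b' (σ b')]
        _ = _ := by rw [hc, mul_one]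
    · rw [map_mul, ← sq b] at e
      exact (mul_left_cancel e).symm
    · have e' : π (σ b) = π b' := by
        simp only [map_mul] at e
        rw [cm b (σ b), mul_assoc, ← mul_assoc (π b), sq, one_mul, ← sq b'] at e
        exact mul_right_cancel e
      have hb0 : b * b = w := hb
      rw [← hb0, map_mul, hb0, ← hb']
      exact (h.sq_eq ((eq _ _).1 e')).symm
  · exact fin _ _ (F2 b) (F2 b') (N b hb) (N b' hb') hc

end Cfsg.Lib.TCK
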